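import Mathlib
import Cfsg.Prelude.Def_OddOrderLocal
import Cfsg.Prelude.Def_HallClasses

set_option autoImplicit false

/-! Project HA (S2538, S2535): Hall subgroups of alternating groups are intersections of
Hall subgroups of symmetric groups. This file only states the package lemmas as `Prop`s. -/

namespace Cfsg.Agent.Lib.Helper73.HA

open Equiv

universe u

/-- Theorem A: every Hall `π`-subgroup of `Alt(Ω)` is `M ⊓ Alt(Ω)` for a Hall `π`-subgroup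
`M` of `Sym(Ω)`. -/
def ThmAll : Prop :=
  ∀ (Ω : Type u) [Fintype Ω] [DecidableEq Ω] (π : Set ℕ) (K : Subgroup (Perm Ω)),
    Cfsg.IsPiHallOf π K (alternatingGroup Ω) →
    ∃ M : Subgroup (Perm Ω), Cfsg.IsPiHall π M ∧ M ⊓ alternatingGroup Ω = K

/-- Structure of the Hall subgroups of `Sym(Ω)`. -/
def HallStruct : Prop :=
  ∀ (Ω : Type u) [Fintype Ω] [DecidableEq Ω] (π : Set ℕ) (H : Subgroup (Perm Ω)),
    Cfsg.IsPiHall π H →
    (∀ r s : ℕ, r.Prime → s.Prime → r ∈ π → s ∈ π → r ≤ Fintype.card Ω →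
        s ≤ Fintype.card Ω → r = s) ∨
    (∀ r : ℕ, r.Prime → r ≤ Fintype.card Ω → r ∈ π) ∨
    ((Fintype.card Ω).Prime ∧
      (∀ r : ℕ, r.Prime → r ≤ Fintype.card Ω → (r ∈ π ↔ r < Fintype.card Ω)) ∧
      ∃ ω : Ω, ∀ g : Perm Ω, g ∈ H ↔ g ω = ω) ∨
    (Fintype.card Ω = 7 ∧ (∀ r : ℕ, r.Prime → r ≤ 7 → (r ∈ π ↔ (r = 2 ∨ r = 3))) ∧
      ∃ s : Finset Ω, s.card = 4 ∧ ∀ g : Perm Ω, g ∈ H ↔ ∀ x, g x ∈ s ↔ x ∈ s) ∨
    (Fintype.card Ω = 8 ∧ (∀ r : ℕ, r.Prime → r ≤ 8 → (r ∈ π ↔ (r = 2 ∨ r = 3))) ∧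
      ∃ s : Finset Ω, s.card = 4 ∧
        ∀ g : Perm Ω, g ∈ H ↔ ((∀ x, g x ∈ s ↔ x ∈ s) ∨ (∀ x, g x ∈ s ↔ x ∉ s)))

/-- Package GLUE: an invariant set with both sides of size at least two gives a
`π`-overgroup with an odd element. -/
def LemGlue : Prop :=
  ∀ (Ω : Type u) [Fintype Ω] [DecidableEq Ω] (π : Set ℕ) (K : Subgroup (Perm Ω)),
    Cfsg.IsPiHallOf π K (alternatingGroup Ω) → 2 ∈ π →
    ∀ s : Finset Ω, (∀ k ∈ K, ∀ x, k x ∈ s ↔ x ∈ s) → 2 ≤ s.card → 2 ≤ sᶜ.card →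
    ∃ M : Subgroup (Perm Ω), K ≤ M ∧ (∀ p : ℕ, p.Prime → p ∣ Nat.card M → p ∈ π) ∧
      ¬ M ≤ alternatingGroup Ω

/-- Package PT: the point stabilizer of a Hall subgroup of `Alt(Ω)` which fixes the point or
is transitive is a Hall subgroup of the alternating group on the remaining points. -/
def LemPt : Prop :=
  ∀ (Ω : Type u) [Fintype Ω] [DecidableEq Ω] (π : Set ℕ) (K : Subgroup (Perm Ω)) (ω : Ω),
    Cfsg.IsPiHallOf π K (alternatingGroup Ω) → 3 ≤ Fintype.card Ω →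
    ((∀ k ∈ K, k ω = ω) ∨ (∀ x y : Ω, ∃ k ∈ K, k x = y)) →
    Cfsg.IsPiHallOf π (K.comap (Perm.ofSubtype : Perm {x // x ≠ ω} →* Perm Ω))
      (alternatingGroup {x // x ≠ ω})

/-- Package S3: no transitive group has as point stabilizer the even permutations fixing
two given points (degree at least 5). -/
def LemS3 : Prop :=
  ∀ (Ω : Type u) [Fintype Ω] [DecidableEq Ω] (K : Subgroup (Perm Ω)) (ω ω' : Ω),
    5 ≤ Fintype.card Ω → ω ≠ ω' → (∀ x y : Ω, ∃ k ∈ K, k x = y) →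
    (∀ g : Perm Ω, (g ∈ K ∧ g ω = ω) ↔ (g ∈ alternatingGroup Ω ∧ g ω = ω ∧ g ω' = ω')) →
    False

/-- Package S4: degree 8, no element of order 5, all 3-cycles of a 4-set `s`: the group
permutes `{s, sᶜ}`. -/
def LemS4 : Prop :=
  ∀ (Ω : Type u) [Fintype Ω] [DecidableEq Ω] (K : Subgroup (Perm Ω)) (s : Finset Ω),
    Fintype.card Ω = 8 → s.card = 4 → ¬ 5 ∣ Nat.card K →
    (∀ a b c : Ω, a ∈ s → b ∈ s → c ∈ s → a ≠ b → a ≠ c → b ≠ c →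
      swap a b * swap b c ∈ K) →
    ∀ g ∈ K, (∀ x, g x ∈ s ↔ x ∈ s) ∨ (∀ x, g x ∈ s ↔ x ∉ s)

/-- Package S5: degree 9, no element of order 5, all 3-cycles of a 4-set `E` avoiding `ω`
and of the 4-set of the other points different from `ω`: the group fixes `ω`. -/
def LemS5 : Prop :=
  ∀ (Ω : Type u) [Fintype Ω] [DecidableEq Ω] (K : Subgroup (Perm Ω)) (ω : Ω) (E : Finset Ω),
    Fintype.card Ω = 9 → E.card = 4 → ω ∉ E → ¬ 5 ∣ Nat.card K →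
    (∀ a b c : Ω, a ≠ ω → b ≠ ω → c ≠ ω → a ≠ b → a ≠ c → b ≠ c →
      ((a ∈ E ∧ b ∈ E ∧ c ∈ E) ∨ (a ∉ E ∧ b ∉ E ∧ c ∉ E)) → swap a b * swap b c ∈ K) →
    ∀ g ∈ K, g ω = ω

/-- Package 1Ba: a solvable transitive group of prime degree has a normal subgroup
generated by an element whose order is the degree. -/
def Lem1Ba : Prop :=
  ∀ (Ω : Type u) [Fintype Ω] [DecidableEq Ω] (K : Subgroup (Perm Ω)),
    (Fintype.card Ω).Prime → (∀ x y : Ω, ∃ k ∈ K, k x = y) → Group.IsSolvable ↥K →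
    ∃ c ∈ K, orderOf c = Fintype.card Ω ∧ ∀ k ∈ K, k * c * k⁻¹ ∈ Subgroup.zpowers c

/-- Package 1Bb: if a cycle of prime full length generates a normal subgroup, a point
stabilizer has at most one involution. -/
def Lem1Bb : Prop :=
  ∀ (Ω : Type u) [Fintype Ω] [DecidableEq Ω] (K : Subgroup (Perm Ω)) (c : Perm Ω),
    (Fintype.card Ω).Prime → c ∈ K → orderOf c = Fintype.card Ω →
    (∀ k ∈ K, k * c * k⁻¹ ∈ Subgroup.zpowers c) →
    ∀ (s t : Perm Ω) (ω : Ω), s ∈ K → t ∈ K → s ω = ω → t ω = ω → s * s = 1 → t * t = 1 →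
      s ≠ 1 → t ≠ 1 → s = t

/-- Package 1Bc: a Hall subgroup of `Alt(Ω)` for a set of primes containing 2 has two
different involutions with a common fixed point (degree at least 5). -/
def Lem1Bc : Prop :=
  ∀ (Ω : Type u) [Fintype Ω] [DecidableEq Ω] (π : Set ℕ) (K : Subgroup (Perm Ω)),
    Cfsg.IsPiHallOf π K (alternatingGroup Ω) → 2 ∈ π → 5 ≤ Fintype.card Ω →
    ∃ (s t : Perm Ω) (ω : Ω), s ∈ K ∧ t ∈ K ∧ s ω = ω ∧ t ω = ω ∧ s * s = 1 ∧ t * t = 1 ∧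
      s ≠ 1 ∧ t ≠ 1 ∧ s ≠ t

/-- Package 1B: `Alt(Ω)` of prime degree `n ≥ 5` has no Hall `{2, n}`-subgroup. -/
def Lem1B : Prop :=
  ∀ (Ω : Type u) [Fintype Ω] [DecidableEq Ω] (π : Set ℕ) (K : Subgroup (Perm Ω)),
    Cfsg.IsPiHallOf π K (alternatingGroup Ω) → (Fintype.card Ω).Prime →
    5 ≤ Fintype.card Ω → 2 ∈ π → Fintype.card Ω ∈ π →
    (∀ r : ℕ, r.Prime → r ∈ π → r ≤ Fintype.card Ω → r = 2 ∨ r = Fintype.card Ω) → False

/-- Package SYL: Hall subgroups for a set of primes with at most one prime dividing the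
group order are conjugate. -/
def LemSylConj : Prop :=
  ∀ (G : Type u) [Group G] [Finite G] (π : Set ℕ) (H₁ H₂ : Subgroup G),
    Cfsg.IsPiHall π H₁ → Cfsg.IsPiHall π H₂ →
    (∀ r s : ℕ, r.Prime → s.Prime → r ∈ π → s ∈ π → r ∣ Nat.card G → s ∣ Nat.card G →
      r = s) →
    ∃ g : G, H₂ = H₁.map (MulAut.conj g).toMonoidHom

/-- Conjugacy of the Hall subgroups of `Sym(Ω)`. -/
def ConjS : Prop :=
  ∀ (Ω : Type u) [Fintype Ω] [DecidableEq Ω] (π : Set ℕ) (H₁ H₂ : Subgroup (Perm Ω)),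
    Cfsg.IsPiHall π H₁ → Cfsg.IsPiHall π H₂ →
    ∃ g : Perm Ω, H₂ = H₁.map (MulAut.conj g).toMonoidHom

/-- Conjugacy of the Hall subgroups of `Alt(Ω)`. -/
def ConjA : Prop :=
  ∀ (Ω : Type u) [Fintype Ω] [DecidableEq Ω] (π : Set ℕ)
    (K₁ K₂ : Subgroup ↥(alternatingGroup Ω)),
    Cfsg.IsPiHall π K₁ → Cfsg.IsPiHall π K₂ →
    ∃ g : ↥(alternatingGroup Ω), K₂ = K₁.map (MulAut.conj g).toMonoidHom

/-- Package INTER: a Hall subgroup meets a normal subgroup in a Hall subgroup of it. -/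
def LemInter : Prop :=
  ∀ (G : Type u) [Group G] [Finite G] (π : Set ℕ) (H N : Subgroup G), N.Normal →
    Cfsg.IsPiHall π H → Cfsg.IsPiHall π (H.subgroupOf N)

/-- Package BRIDGE: Hall subgroups of the group `↥A` and Hall subgroups of the subgroup `A`. -/
def LemBridge : Prop :=
  ∀ (G : Type u) [Group G] (π : Set ℕ) (A : Subgroup G) (M : Subgroup ↥A),
    Cfsg.IsPiHall π M ↔ Cfsg.IsPiHallOf π (M.map A.subtype) A

/-- The statement of S2538. -/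
def S2538Stmt : Prop :=
  ∀ (n : ℕ) (π : Set ℕ) (M : Subgroup ↥(alternatingGroup (Fin n))),
    Cfsg.IsPiHall π M ↔ ∃ M₀ : Subgroup (Equiv.Perm (Fin n)),
      Cfsg.IsPiHall π M₀ ∧ M = M₀.subgroupOf (alternatingGroup (Fin n))

/-- The statement of S2535. -/
def S2535Stmt : Prop :=
  ∀ (n : ℕ) (π : Set ℕ),
    (Cfsg.IsEPiGroup π (Equiv.Perm (Fin n)) ↔ Cfsg.IsCPiGroup π (Equiv.Perm (Fin n))) ∧
    (Cfsg.IsEPiGroup π (Equiv.Perm (Fin n)) ↔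
      Cfsg.IsEPiGroup π ↥(alternatingGroup (Fin n))) ∧
    (Cfsg.IsEPiGroup π ↥(alternatingGroup (Fin n)) ↔
      Cfsg.IsCPiGroup π ↥(alternatingGroup (Fin n)))

/-- Package CRIT: a `π`-overgroup with an odd element of a Hall subgroup of `Alt(Ω)` is a
Hall subgroup of `Sym(Ω)` meeting `Alt(Ω)` in it. -/
def LemCrit : Prop :=
  ∀ (Ω : Type u) [Fintype Ω] [DecidableEq Ω] (π : Set ℕ) (K M : Subgroup (Perm Ω)),
    Cfsg.IsPiHallOf π K (alternatingGroup Ω) → K ≤ M →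
    (∀ p : ℕ, p.Prime → p ∣ Nat.card M → p ∈ π) → ¬ M ≤ alternatingGroup Ω →
    Cfsg.IsPiHall π M ∧ M ⊓ alternatingGroup Ω = K

/-- Package ODD: for `2 ∉ π` (or degree at most one) a Hall subgroup of `Alt(Ω)` is a Hall
subgroup of `Sym(Ω)`. -/
def LemOdd : Prop :=
  ∀ (Ω : Type u) [Fintype Ω] [DecidableEq Ω] (π : Set ℕ) (K : Subgroup (Perm Ω)),
    Cfsg.IsPiHallOf π K (alternatingGroup Ω) → (2 ∉ π ∨ Fintype.card Ω ≤ 1) →
    Cfsg.IsPiHall π K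

/-- Package TWO: if 2 is the only prime of `π` up to the degree, a Sylow 2-subgroup of
`Sym(Ω)` is a `π`-overgroup with an odd element. -/
def LemTwo : Prop :=
  ∀ (Ω : Type u) [Fintype Ω] [DecidableEq Ω] (π : Set ℕ) (K : Subgroup (Perm Ω)),
    Cfsg.IsPiHallOf π K (alternatingGroup Ω) → 2 ∈ π → 2 ≤ Fintype.card Ω →
    (∀ r : ℕ, r.Prime → r ∈ π → r ≤ Fintype.card Ω → r = 2) →
    ∃ M : Subgroup (Perm Ω), K ≤ M ∧ (∀ p : ℕ, p.Prime → p ∣ Nat.card M → p ∈ π) ∧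
      ¬ M ≤ alternatingGroup Ω

/-- Package FIX: lifting a Hall subgroup of the symmetric group on the points different
from a fixed point `ω`. -/
def LemFix : Prop :=
  ∀ (Ω : Type u) [Fintype Ω] [DecidableEq Ω] (π : Set ℕ) (K : Subgroup (Perm Ω)) (ω : Ω)
    (M₁ : Subgroup (Perm {x // x ≠ ω})),
    2 ∈ π → 3 ≤ Fintype.card Ω → (∀ k ∈ K, k ω = ω) → Cfsg.IsPiHall π M₁ →
    M₁ ⊓ alternatingGroup {x // x ≠ ω} =
      K.comap (Perm.ofSubtype : Perm {x // x ≠ ω} →* Perm Ω) →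
    ∃ M : Subgroup (Perm Ω), K ≤ M ∧ (∀ p : ℕ, p.Prime → p ∣ Nat.card M → p ∈ π) ∧
      ¬ M ≤ alternatingGroup Ω

/-- Package STRUCT-PRIME: prime degree, `π` = the smaller primes: a point stabilizer. -/
def LemStructPrime : Prop :=
  ∀ (Ω : Type u) [Fintype Ω] [DecidableEq Ω] (π : Set ℕ) (H : Subgroup (Perm Ω)),
    Cfsg.IsPiHall π H → (Fintype.card Ω).Prime →
    (∀ r : ℕ, r.Prime → r ≤ Fintype.card Ω → (r ∈ π ↔ r < Fintype.card Ω)) →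
    ∃ ω : Ω, ∀ g : Perm Ω, g ∈ H ↔ g ω = ω

/-- Package STRUCT-SEVEN: degree 7, `π ∩ [1,7] = {2,3}`: the stabilizer of a 4-set. -/
def LemStructSeven : Prop :=
  ∀ (Ω : Type u) [Fintype Ω] [DecidableEq Ω] (π : Set ℕ) (H : Subgroup (Perm Ω)),
    Cfsg.IsPiHall π H → Fintype.card Ω = 7 →
    (∀ r : ℕ, r.Prime → r ≤ 7 → (r ∈ π ↔ (r = 2 ∨ r = 3))) →
    ∃ s : Finset Ω, s.card = 4 ∧ ∀ g : Perm Ω, g ∈ H ↔ ∀ x, g x ∈ s ↔ x ∈ s

/-- Package STRUCT-EIGHT: degree 8, `π ∩ [1,8] = {2,3}`: the stabilizer of a partition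
into two 4-sets. -/
def LemStructEight : Prop :=
  ∀ (Ω : Type u) [Fintype Ω] [DecidableEq Ω] (π : Set ℕ) (H : Subgroup (Perm Ω)),
    Cfsg.IsPiHall π H → Fintype.card Ω = 8 →
    (∀ r : ℕ, r.Prime → r ≤ 8 → (r ∈ π ↔ (r = 2 ∨ r = 3))) →
    ∃ s : Finset Ω, s.card = 4 ∧
      ∀ g : Perm Ω, g ∈ H ↔ ((∀ x, g x ∈ s ↔ x ∈ s) ∨ (∀ x, g x ∈ s ↔ x ∉ s))

end Cfsg.Agent.Lib.Helper73.HA
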