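import Mathlib
import Cfsg.Prelude.Def_OddOrderLocal
import Cfsg.Prelude.Def_HallClasses
import Cfsg.Agent.Lib.Helper73.HA.Defs

set_option autoImplicit false

/-! Project HA, second part (S2534): the full Sylow analogue for alternating groups.
This file only states the package lemmas as `Prop`s. -/

namespace Cfsg.Agent.Lib.Helper73.HA

open Equiv

universe u

/-- Package D-ONE: at most one prime of `π` divides the order: maximal `π`-subgroups are
conjugate. -/
def LemDOne : Prop :=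
  ∀ (G : Type u) [Group G] [Finite G] (π : Set ℕ),
    (∀ r s : ℕ, r.Prime → s.Prime → r ∈ π → s ∈ π → r ∣ Nat.card G → s ∣ Nat.card G →
      r = s) →
    Cfsg.IsDPiGroup π G

/-- Package D-ALL: all primes dividing the order lie in `π`: maximal `π`-subgroups are
conjugate. -/
def LemDAll : Prop :=
  ∀ (G : Type u) [Group G] [Finite G] (π : Set ℕ),
    (∀ r : ℕ, r.Prime → r ∣ Nat.card G → r ∈ π) → Cfsg.IsDPiGroup π G

/-- Package D-HALL: if the maximal `π`-subgroups are conjugate, there is a Hall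
`π`-subgroup, and every `π`-subgroup lies in a conjugate of it. -/
def LemDHall : Prop :=
  ∀ (G : Type u) [Group G] [Finite G] (π : Set ℕ), Cfsg.IsDPiGroup π G →
    ∃ K : Subgroup G, Cfsg.IsPiHall π K ∧
      ∀ H : Subgroup G, Cfsg.IsPiSubgroup π H →
        ∃ g : G, H ≤ K.map (MulAut.conj g).toMonoidHom

/-- Package W-PRIME: a `π`-subgroup of `Alt(Ω)` without fixed points, when `π` contains
the primes up to `n - 2` (degree `n ≥ 5`). -/
def LemWPrime : Prop :=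
  ∀ (Ω : Type u) [Fintype Ω] [DecidableEq Ω] (π : Set ℕ), 5 ≤ Fintype.card Ω →
    (∀ r : ℕ, r.Prime → r + 2 ≤ Fintype.card Ω → r ∈ π) →
    ∃ H : Subgroup (Perm Ω), H ≤ alternatingGroup Ω ∧
      (∀ p : ℕ, p.Prime → p ∣ Nat.card H → p ∈ π) ∧ ∀ ω : Ω, ∃ h ∈ H, h ω ≠ ω

/-- Package W-78: degree 7 or 8, `2, 3 ∈ π`: a `π`-subgroup of `Alt(Ω)` which stabilizes
no partition into a 4-set and its complement. -/
def LemW78 : Prop :=
  ∀ (Ω : Type u) [Fintype Ω] [DecidableEq Ω] (π : Set ℕ),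
    (Fintype.card Ω = 7 ∨ Fintype.card Ω = 8) → 2 ∈ π → 3 ∈ π →
    ∃ H : Subgroup (Perm Ω), H ≤ alternatingGroup Ω ∧
      (∀ p : ℕ, p.Prime → p ∣ Nat.card H → p ∈ π) ∧
      ∀ s : Finset Ω, s.card = 4 →
        ∃ h ∈ H, ¬ ((∀ x, h x ∈ s ↔ x ∈ s) ∨ (∀ x, h x ∈ s ↔ x ∉ s))

/-- The statement of S2534. -/
def S2534Stmt : Prop :=
  ∀ (n : ℕ), 5 ≤ n → ∀ (π : Set ℕ),
    Cfsg.IsDPiGroup π ↥(alternatingGroup (Fin n)) ↔
      ((∀ r s : ℕ, r.Prime → s.Prime → r ∈ π → s ∈ π →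
          r ∣ Nat.card ↥(alternatingGroup (Fin n)) →
          s ∣ Nat.card ↥(alternatingGroup (Fin n)) → r = s) ∨
        ∀ r : ℕ, r.Prime → r ∣ Nat.card ↥(alternatingGroup (Fin n)) → r ∈ π)

end Cfsg.Agent.Lib.Helper73.HA
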