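import Mathlib
import Cfsg.Agent.Lib.Helper73.HA.Defs
import Cfsg.Agent.Lib.Helper73.HT.Main4

set_option autoImplicit false

/-! Project HA: the main induction (Theorem A) from the package lemmas. -/

namespace Cfsg.Agent.Lib.Helper73.HA

open Equiv

universe u

theorem hallStruct_of (hP : LemStructPrime.{u}) (h7 : LemStructSeven.{u})
    (h8 : LemStructEight.{u}) : HallStruct.{u} := by
  intro Ω _ _ π H hH
  have hg := HT.hall_good (Fintype.card Ω) Ω π H rfl hH
  rcases hg with g1 | g2 | ⟨g3p, g3⟩ | ⟨g4n, g4⟩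
  · exact Or.inl g1
  · exact Or.inr (Or.inl g2)
  · exact Or.inr (Or.inr (Or.inl ⟨g3p, g3, hP Ω π H hH g3p g3⟩))
  · rcases g4n with h | h
    · rw [h] at g4
      exact Or.inr (Or.inr (Or.inr (Or.inl ⟨h, g4, h7 Ω π H hH h g4⟩)))
    · rw [h] at g4
      exact Or.inr (Or.inr (Or.inr (Or.inr ⟨h, g4, h8 Ω π H hH h g4⟩)))

theorem prime_eq_three {r : ℕ} (hr : r.Prime) (h2 : r ≠ 2) (h4 : r ≤ 4) : r = 3 := by
  have := hr.two_le
  interval_cases r
  · exact absurd rfl h2
  · rfl
  · exact absurd hr (by decide)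

theorem swap_mem_iff {Ω : Type*} [DecidableEq Ω] {s : Finset Ω} {a b : Ω}
    (h : a ∈ s ↔ b ∈ s) (x : Ω) : swap a b x ∈ s ↔ x ∈ s := by
  by_cases hxa : x = a
  · rw [hxa, swap_apply_left]; exact h.symm
  · by_cases hxb : x = b
    · rw [hxb, swap_apply_right]; exact h
    · rw [swap_apply_of_ne_of_ne hxa hxb]

theorem three_cycle_mem_iff {Ω : Type*} [DecidableEq Ω] {s : Finset Ω} {a b c : Ω}
    (h : a ∈ s ↔ b ∈ s) (h' : b ∈ s ↔ c ∈ s) (x : Ω) :
    (swap a b * swap b c) x ∈ s ↔ x ∈ s := by
  rw [Perm.mul_apply, swap_mem_iff h, swap_mem_iff h']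

theorem three_cycle_fix {Ω : Type*} [DecidableEq Ω] {a b c ω : Ω}
    (ha : a ≠ ω) (hb : b ≠ ω) (hc : c ≠ ω) : (swap a b * swap b c) ω = ω := by
  rw [Perm.mul_apply, swap_apply_of_ne_of_ne (Ne.symm hb) (Ne.symm hc),
    swap_apply_of_ne_of_ne (Ne.symm ha) (Ne.symm hb)]

theorem three_cycle_sign {Ω : Type*} [DecidableEq Ω] [Fintype Ω] {a b c : Ω}
    (hab : a ≠ b) (hbc : b ≠ c) : Perm.sign (swap a b * swap b c) = 1 := by
  rw [Perm.sign_mul, Perm.sign_swap hab, Perm.sign_swap hbc]
  decide

theorem thmAll_of (hCrit : LemCrit.{u}) (hOdd : LemOdd.{u}) (hTwo : LemTwo.{u})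
    (hFix : LemFix.{u}) (hPt : LemPt.{u}) (hGlue : LemGlue.{u}) (hS3 : LemS3.{u})
    (hS4 : LemS4.{u}) (hS5 : LemS5.{u}) (h1B : Lem1B.{u}) (hStruct : HallStruct.{u}) :
    ThmAll.{u} := by
  have key : ∀ n : ℕ, ∀ (Ω : Type u) [Fintype Ω] [DecidableEq Ω] (π : Set ℕ)
      (K : Subgroup (Perm Ω)), Fintype.card Ω = n →
      Cfsg.IsPiHallOf π K (alternatingGroup Ω) →
      ∃ M : Subgroup (Perm Ω), Cfsg.IsPiHall π M ∧ M ⊓ alternatingGroup Ω = K := by
    intro n
    induction n using Nat.strong_induction_on with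
    | _ n ih =>
    intro Ω _ _ π K hcard hK
    by_cases h2 : 2 ∈ π
    swap
    · exact ⟨K, hOdd Ω π K hK (Or.inl h2), inf_eq_left.2 hK.1⟩
    by_cases hn2 : n ≤ 1
    · exact ⟨K, hOdd Ω π K hK (Or.inr (hcard ▸ hn2)), inf_eq_left.2 hK.1⟩
    suffices hsuff : ∃ M : Subgroup (Perm Ω), K ≤ M ∧
        (∀ p : ℕ, p.Prime → p ∣ Nat.card M → p ∈ π) ∧ ¬ M ≤ alternatingGroup Ω by
      obtain ⟨M, hKM, hMπ, hMA⟩ := hsuff
      exact ⟨M, hCrit Ω π K M hK hKM hMπ hMA⟩
    have hnt : Nontrivial Ω := Fintype.one_lt_card_iff_nontrivial.1 (by omega)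
    -- all primes up to `n` in `π`
    by_cases hall : ∀ r : ℕ, r.Prime → r ≤ n → r ∈ π
    · refine ⟨⊤, le_top, ?_, ?_⟩
      · intro p hp hdvd
        rw [Subgroup.card_top, Nat.card_eq_fintype_card, Fintype.card_perm, hcard] at hdvd
        exact hall p hp ((hp.dvd_factorial).1 hdvd)
      · intro hle
        obtain ⟨a, b, hab⟩ := exists_pair_ne Ω
        have h1 := hle (Subgroup.mem_top (swap a b))
        rw [Perm.mem_alternatingGroup, Perm.sign_swap hab] at h1
        exact absurd h1 (by decide)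
    -- 2 the only prime
    by_cases honly : ∀ r : ℕ, r.Prime → r ∈ π → r ≤ n → r = 2
    · exact hTwo Ω π K hK h2 (by omega) (hcard ▸ honly)
    -- an invariant set with two big sides
    by_cases hinv : ∃ s : Finset Ω, (∀ k ∈ K, ∀ x, k x ∈ s ↔ x ∈ s) ∧ 2 ≤ s.card ∧
        2 ≤ sᶜ.card
    · obtain ⟨s, hs, h1, h1'⟩ := hinv
      exact hGlue Ω π K hK h2 s hs h1 h1'
    obtain ⟨r₀, hr₀p, hr₀n, hr₀π⟩ : ∃ r : ℕ, r.Prime ∧ r ≤ n ∧ r ∉ π := by
      by_contra hcon
      apply hall
      intro r hr hrn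
      by_contra hrπ
      exact hcon ⟨r, hr, hrn, hrπ⟩
    obtain ⟨r₁, hr₁p, hr₁π, hr₁n, hr₁2⟩ : ∃ r : ℕ, r.Prime ∧ r ∈ π ∧ r ≤ n ∧ r ≠ 2 := by
      by_contra hcon
      apply honly
      intro r hr hrπ hrn
      by_contra hr2
      exact hcon ⟨r, hr, hrπ, hrn, hr2⟩
    have hn5 : 5 ≤ n := by
      by_contra hlt
      have h02 : r₀ ≠ 2 := fun h => hr₀π (h ▸ h2)
      have h01 : r₀ ≠ r₁ := fun h => hr₀π (h ▸ hr₁π)
      have e0 := prime_eq_three hr₀p h02 (by omega)
      have e1 := prime_eq_three hr₁p hr₁2 (by omega)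
      exact h01 (e0.trans e1.symm)
    by_cases htr : ∀ x y : Ω, ∃ k ∈ K, k x = y
    · -- the transitive case
      have hne : Nonempty Ω := by
        rw [← Fintype.card_pos_iff, hcard]; omega
      obtain ⟨ω⟩ := hne
      have hneΩ : Nonempty Ω := ⟨ω⟩
      have hK' := hPt Ω π K ω hK (by omega) (Or.inr htr)
      have hc1 : Fintype.card {x // x ≠ ω} = n - 1 := by
        rw [Fintype.card_subtype_compl, Fintype.card_subtype_eq, hcard]
      obtain ⟨M₁, hM₁, hM₁K⟩ := ih (n - 1) (by omega) {x // x ≠ ω} π _ hc1 hK'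
      have hmem : ∀ g' : Perm {x // x ≠ ω},
          Perm.ofSubtype g' ∈ K ↔ g' ∈ M₁ ∧ Perm.sign g' = 1 := by
        intro g'
        rw [← Subgroup.mem_comap, ← hM₁K, Subgroup.mem_inf, Perm.mem_alternatingGroup]
      have hlift : ∀ g : Perm Ω, g ω = ω → ∃ g' : Perm {x // x ≠ ω},
          Perm.ofSubtype g' = g ∧ ∀ x : {x // x ≠ ω}, ((g' x : {x // x ≠ ω}) : Ω) = g x := by
        intro g hg
        have hp : ∀ x, g x ≠ ω ↔ x ≠ ω := by
          intro x
          constructor
          · intro h hx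
            exact h (hx ▸ hg)
          · intro h hx
            exact h (g.injective (hx.trans hg.symm))
        refine ⟨g.subtypePerm hp, ?_, fun x => rfl⟩
        apply Perm.ofSubtype_subtypePerm
        intro x hx hxω
        exact hx (hxω ▸ hg)
      have hkey : ∀ g : Perm Ω, ∀ g' : Perm {x // x ≠ ω}, Perm.ofSubtype g' = g →
          (g ∈ K ↔ g' ∈ M₁ ∧ Perm.sign g = 1) := by
        intro g g' hg'
        rw [← hg', hmem g', Perm.sign_ofSubtype]
      -- three-cycles of `K` from three-cycles of `M₁`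
      have h3c : ∀ (s' : Finset {x // x ≠ ω}) (a b c : Ω), a ≠ ω → b ≠ ω → c ≠ ω →
          a ≠ b → b ≠ c →
          (a ∈ s'.map (Function.Embedding.subtype _) ↔
            b ∈ s'.map (Function.Embedding.subtype _)) →
          (b ∈ s'.map (Function.Embedding.subtype _) ↔
            c ∈ s'.map (Function.Embedding.subtype _)) →
          (∀ g' : Perm {x // x ≠ ω}, (∀ x, g' x ∈ s' ↔ x ∈ s') → g' ∈ M₁) →
          swap a b * swap b c ∈ K := by
        intro s' a b c ha hb hc hab hbc h1 h1' hM
        obtain ⟨g', hg', hg'x⟩ := hlift (swap a b * swap b c) (three_cycle_fix ha hb hc)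
        refine (hkey _ g' hg').2 ⟨hM g' ?_, three_cycle_sign hab hbc⟩
        intro x
        have e1 : ∀ y : {x // x ≠ ω},
            (y : Ω) ∈ s'.map (Function.Embedding.subtype _) ↔ y ∈ s' := fun y =>
          Finset.mem_map' (Function.Embedding.subtype _)
        rw [← e1 (g' x), ← e1 x, hg'x x]
        exact three_cycle_mem_iff h1 h1' _
      rcases hStruct {x // x ≠ ω} π M₁ hM₁ with b1 | b2 | ⟨b3p, b3, ω', hω'⟩ |
        ⟨b4n, b4, s', hs', hs'M⟩ | ⟨b5n, b5, s', hs', hs'M⟩
      · -- at most one prime up to `n - 1`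
        exfalso
        rw [hc1] at b1
        have hr₁n' : r₁ = n := by
          by_contra hne
          exact hr₁2 (b1 r₁ 2 hr₁p Nat.prime_two hr₁π h2 (by omega) (by omega))
        have hnp : (Fintype.card Ω).Prime := by rw [hcard, ← hr₁n']; exact hr₁p
        have hnπ : Fintype.card Ω ∈ π := by rw [hcard, ← hr₁n']; exact hr₁π
        apply h1B Ω π K hK hnp (by omega) h2 hnπ
        intro r hr hrπ hrn
        rw [hcard] at hrn ⊢
        by_cases hrn' : r = n
        · exact Or.inr hrn'
        · exact Or.inl (b1 r 2 hr Nat.prime_two hrπ h2 (by omega) (by omega))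
      · -- all primes up to `n - 1`
        exfalso
        rw [hc1] at b2
        have hr₀n' : r₀ = n := by
          by_contra hne
          exact hr₀π (b2 r₀ hr₀p (by omega))
        have hdvd : Fintype.card Ω ∣ Nat.card K :=
          Cfsg.Agent.Lib.Helper62.HT.card_dvd_of_transitive htr
        exact hr₀π (hK.2.1 r₀ hr₀p (by rw [hr₀n', ← hcard]; exact hdvd))
      · -- `M₁` a point stabilizer
        exfalso
        apply hS3 Ω K ω ω'.1 (by omega) (Ne.symm ω'.2) htr
        intro g
        constructor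
        · rintro ⟨hgK, hgω⟩
          obtain ⟨g', hg', hg'x⟩ := hlift g hgω
          have h1 := (hkey g g' hg').1 hgK
          refine ⟨hK.1 hgK, hgω, ?_⟩
          have h2 := (hω' g').1 h1.1
          rw [← hg'x ω', h2]
        · rintro ⟨hgA, hgω, hgω'⟩
          obtain ⟨g', hg', hg'x⟩ := hlift g hgω
          refine ⟨(hkey g g' hg').2 ⟨(hω' g').2 ?_, Perm.mem_alternatingGroup.1 hgA⟩, hgω⟩
          apply Subtype.ext
          rw [hg'x ω', hgω']
      · -- degree 8
        rw [hc1] at b4n
        have hn8 : Fintype.card Ω = 8 := by omega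
        have h5 : ¬ 5 ∣ Nat.card K := by
          intro h
          have := (b4 5 (by norm_num) (by omega)).1 (hK.2.1 5 (by norm_num) h)
          omega
        have hscard : (s'.map (Function.Embedding.subtype _)).card = 4 := by
          rw [Finset.card_map, hs']
        have hωs : ∀ x ∈ s'.map (Function.Embedding.subtype (fun x : Ω => x ≠ ω)), x ≠ ω := by
          intro x hx
          obtain ⟨y, -, rfl⟩ := Finset.mem_map.1 hx
          exact y.2
        have hKs := hS4 Ω K (s'.map (Function.Embedding.subtype _)) hn8 hscard h5 (by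
          intro a b c ha hb hc hab hac hbc
          exact h3c s' a b c (hωs a ha) (hωs b hb) (hωs c hc) hab hbc
            (iff_of_true ha hb) (iff_of_true hb hc) (fun g' hg' => (hs'M g').2 hg'))
        refine ⟨Cfsg.Agent.Lib.Helper78.HT.pairStab (s'.map (Function.Embedding.subtype _)),
          fun g hg => hKs g hg, ?_, ?_⟩
        · intro p hp hdvd
          have hcompl : (s'.map (Function.Embedding.subtype (fun x : Ω => x ≠ ω)))ᶜ.card =
              (s'.map (Function.Embedding.subtype (fun x : Ω => x ≠ ω))).card := by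
            rw [Finset.card_compl, hn8, hscard]
          have hidx := Cfsg.Agent.Lib.Helper78.HT.index_pairStab _ hcompl
          rw [hn8, hscard] at hidx
          have h70 : Nat.choose 8 4 = 70 := by decide
          rw [h70] at hidx
          have hmul := Subgroup.card_mul_index (Cfsg.Agent.Lib.Helper78.HT.pairStab
            (s'.map (Function.Embedding.subtype (fun x : Ω => x ≠ ω))))
          rw [Nat.card_eq_fintype_card (α := Perm Ω), Fintype.card_perm, hn8] at hmul
          have hfact : Nat.factorial 8 = 40320 := by decide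
          rw [hfact] at hmul
          have hidx' : (Cfsg.Agent.Lib.Helper78.HT.pairStab
            (s'.map (Function.Embedding.subtype (fun x : Ω => x ≠ ω)))).index = 35 := by omega
          rw [hidx'] at hmul
          have hcardM : Nat.card (Cfsg.Agent.Lib.Helper78.HT.pairStab
            (s'.map (Function.Embedding.subtype (fun x : Ω => x ≠ ω)))) = 2 ^ 7 * 3 ^ 2 := by
            omega
          rw [hcardM] at hdvd
          rcases Cfsg.Agent.Lib.Helper78.HT.prime_dvd_two_three p 7 2 hp hdvd with h | h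
          · rw [h]; exact h2
          · rw [h]; exact (b4 3 (by norm_num) (by omega)).2 (Or.inr rfl)
        · intro hle
          obtain ⟨a, ha, b, hb, hab⟩ := Finset.one_lt_card.1 (by rw [hscard]; omega)
          have hmemP : swap a b ∈ Cfsg.Agent.Lib.Helper78.HT.pairStab
              (s'.map (Function.Embedding.subtype (fun x : Ω => x ≠ ω))) :=
            Or.inl (fun x => swap_mem_iff (iff_of_true ha hb) x)
          have h1 := hle hmemP
          rw [Perm.mem_alternatingGroup, Perm.sign_swap hab] at h1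
          exact absurd h1 (by decide)
      · -- degree 9
        exfalso
        rw [hc1] at b5n
        have hn9 : Fintype.card Ω = 9 := by omega
        have h5 : ¬ 5 ∣ Nat.card K := by
          intro h
          have := (b5 5 (by norm_num) (by omega)).1 (hK.2.1 5 (by norm_num) h)
          omega
        have hscard : (s'.map (Function.Embedding.subtype _)).card = 4 := by
          rw [Finset.card_map, hs']
        have hωs : ω ∉ s'.map (Function.Embedding.subtype (fun x : Ω => x ≠ ω)) := by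
          intro hx
          obtain ⟨y, -, hy⟩ := Finset.mem_map.1 hx
          exact y.2 hy
        have hKω := hS5 Ω K ω (s'.map (Function.Embedding.subtype _)) hn9 hscard hωs h5 (by
          intro a b c ha hb hc hab hac hbc hE
          apply h3c s' a b c ha hb hc hab hbc ?_ ?_
            (fun g' hg' => (hs'M g').2 (Or.inl hg'))
          · rcases hE with ⟨h1, h2, -⟩ | ⟨h1, h2, -⟩
            · exact iff_of_true h1 h2
            · exact iff_of_false h1 h2
          · rcases hE with ⟨-, h2, h3⟩ | ⟨-, h2, h3⟩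
            · exact iff_of_true h2 h3
            · exact iff_of_false h2 h3)
        obtain ⟨y, hy⟩ := exists_ne ω
        obtain ⟨k, hk, hky⟩ := htr ω y
        exact hy (hky ▸ hKω k hk)
    · -- a fixed point
      have hfix : ∃ ω : Ω, ∀ k ∈ K, k ω = ω := by
        obtain ⟨x, y, hxy⟩ : ∃ x y : Ω, ¬ ∃ k ∈ K, k x = y := by
          by_contra hcon
          apply htr
          intro x y
          by_contra h
          exact hcon ⟨x, y, h⟩
        have hinvΔ := HT.orb_inv (H := K) x
        have hxΔ : x ∈ HT.orb K x := HT.self_mem_orb x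
        have hyΔ : y ∉ HT.orb K x := fun h => hxy (HT.mem_orb.1 h)
        have hc : ¬ (2 ≤ (HT.orb K x).card ∧ 2 ≤ (HT.orb K x)ᶜ.card) := fun h =>
          hinv ⟨_, hinvΔ, h.1, h.2⟩
        have hsum : (HT.orb K x).card + (HT.orb K x)ᶜ.card = n := by
          rw [Finset.card_add_card_compl, hcard]
        have h1 : 1 ≤ (HT.orb K x).card := Finset.card_pos.2 ⟨x, hxΔ⟩
        have h1' : 1 ≤ (HT.orb K x)ᶜ.card := Finset.card_pos.2 ⟨y, Finset.mem_compl.2 hyΔ⟩
        rcases Nat.lt_or_ge (HT.orb K x).card 2 with hlt | hge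
        · have h1c : (HT.orb K x).card = 1 := by omega
          obtain ⟨a, ha⟩ := Finset.card_eq_one.1 h1c
          refine ⟨x, fun k hk => ?_⟩
          have hkx : k x ∈ HT.orb K x := (hinvΔ k hk x).2 hxΔ
          rw [ha, Finset.mem_singleton] at hkx hxΔ
          rw [hkx, hxΔ]
        · have h1c : (HT.orb K x)ᶜ.card = 1 := by
            by_contra hne
            exact hc ⟨hge, by omega⟩
          obtain ⟨a, ha⟩ := Finset.card_eq_one.1 h1c
          refine ⟨y, fun k hk => ?_⟩
          have hyc : y ∈ (HT.orb K x)ᶜ := Finset.mem_compl.2 hyΔ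
          have hkyc : k y ∈ (HT.orb K x)ᶜ :=
            Finset.mem_compl.2 (fun h => hyΔ ((hinvΔ k hk y).1 h))
          rw [ha, Finset.mem_singleton] at hyc hkyc
          rw [hkyc, hyc]
      obtain ⟨ω, hω⟩ := hfix
      have hK' := hPt Ω π K ω hK (by omega) (Or.inl hω)
      have hc1 : Fintype.card {x // x ≠ ω} = n - 1 := by
        rw [Fintype.card_subtype_compl, Fintype.card_subtype_eq, hcard]
      obtain ⟨M₁, hM₁, hM₁K⟩ := ih (n - 1) (by omega) {x // x ≠ ω} π _ hc1 hK'
      exact hFix Ω π K ω M₁ h2 (by omega) hω hM₁ hM₁K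
  intro Ω _ _ π K hK
  exact key (Fintype.card Ω) Ω π K rfl hK

end Cfsg.Agent.Lib.Helper73.HA
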