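import Mathlib
import Cfsg.Agent.Lib.Helper73.HA.Main
import Cfsg.Agent.Lib.Helper11.HA.Lem1B
import Cfsg.Agent.Lib.Helper11.HA.Lem1Ba
import Cfsg.Agent.Lib.Helper13.HA.ConjS
import Cfsg.Agent.Lib.Helper13.HA.LemS45
import Cfsg.Agent.Lib.Helper15.HA.LemStructEight
import Cfsg.Agent.Lib.Helper15.HA.LemStructSeven
import Cfsg.Agent.Lib.Helper27.HA.Lem1Bc
import Cfsg.Agent.Lib.Helper27.HA.LemS3
import Cfsg.Agent.Lib.Helper53.HA.LemStructPrime
import Cfsg.Agent.Lib.Helper54.HA.LemBridge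
import Cfsg.Agent.Lib.Helper54.HA.LemCrit
import Cfsg.Agent.Lib.Helper54.HA.LemInter
import Cfsg.Agent.Lib.Helper54.HA.LemOdd
import Cfsg.Agent.Lib.Helper54.HA.LemSylConj
import Cfsg.Agent.Lib.Helper61.HA.Lem1Bb
import Cfsg.Agent.Lib.Helper61.HA.ConjA
import Cfsg.Agent.Lib.Helper62.HA.Final
import Cfsg.Agent.Lib.Helper62.HA.LemFix
import Cfsg.Agent.Lib.Helper62.HA.LemPt
import Cfsg.Agent.Lib.Helper62.HA.LemTwo
import Cfsg.Agent.Lib.Helper88.HA.LemGlue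

set_option autoImplicit false

/-! Project HA: the assembled theorems (packages by helper11, 13, 15, 27, 53, 54, 61, 62,
88). -/

namespace Cfsg.Agent.Lib.Helper73.HA

universe u

/-- Structure of the Hall subgroups of symmetric groups. -/
theorem hallStruct : HallStruct.{u} :=
  hallStruct_of Cfsg.Agent.Lib.Helper53.HA.lemStructPrime
    Cfsg.Agent.Lib.Helper15.HA.lemStructSeven Cfsg.Agent.Lib.Helper15.HA.lemStructEight

/-- Theorem A: Hall subgroups of alternating groups are intersections. -/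
theorem thmAll : ThmAll.{u} :=
  thmAll_of Cfsg.Agent.Lib.Helper54.HA.lemCrit Cfsg.Agent.Lib.Helper54.HA.lemOdd
    Cfsg.Agent.Lib.Helper62.HA.lemTwo Cfsg.Agent.Lib.Helper62.HA.lemFix
    Cfsg.Agent.Lib.Helper62.HA.lemPt Cfsg.Agent.Lib.Helper88.HA.lemGlue
    Cfsg.Agent.Lib.Helper27.HA.lemS3 Cfsg.Agent.Lib.Helper13.HA.lemS4
    Cfsg.Agent.Lib.Helper13.HA.lemS5
    (Cfsg.Agent.Lib.Helper11.HA.lem1B_of Cfsg.Agent.Lib.Helper11.HA.lem1Ba
      Cfsg.Agent.Lib.Helper61.HA.lem1Bb Cfsg.Agent.Lib.Helper27.HA.lem1Bc)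
    hallStruct

theorem conjS : ConjS.{u} :=
  Cfsg.Agent.Lib.Helper13.HA.conjS_of hallStruct Cfsg.Agent.Lib.Helper54.HA.lemSylConj

theorem conjA : ConjA.{u} :=
  Cfsg.Agent.Lib.Helper61.HA.conjA_of thmAll conjS Cfsg.Agent.Lib.Helper54.HA.lemSylConj
    Cfsg.Agent.Lib.Helper54.HA.lemBridge Cfsg.Agent.Lib.Helper54.HA.lemOdd

theorem s2538 : S2538Stmt :=
  Cfsg.Agent.Lib.Helper62.HA.s2538_of thmAll Cfsg.Agent.Lib.Helper54.HA.lemInter
    Cfsg.Agent.Lib.Helper54.HA.lemBridge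

theorem s2535 : S2535Stmt :=
  Cfsg.Agent.Lib.Helper62.HA.s2535_of s2538 conjS conjA

end Cfsg.Agent.Lib.Helper73.HA
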