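import Mathlib
import Cfsg.Agent.Lib.Helper73.HA.Thm
import Cfsg.Agent.Lib.Helper73.HA.Defs2
import Cfsg.Agent.Lib.Helper27.HA.S2534Of
import Cfsg.Agent.Lib.Helper69.HA.LemDOne
import Cfsg.Agent.Lib.Helper69.HA.LemDAll
import Cfsg.Agent.Lib.Helper61.HA.LemDHall
import Cfsg.Agent.Lib.Helper11.HA.LemWPrime
import Cfsg.Agent.Lib.Helper15.HA.LemW78

set_option autoImplicit false

/-! Project HA, second part: S2534 assembled (packages by helper11, 15, 27, 61, 69). -/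

namespace Cfsg.Agent.Lib.Helper73.HA

theorem s2534 : S2534Stmt :=
  Cfsg.Agent.Lib.Helper27.HA.s2534_of thmAll hallStruct Cfsg.Agent.Lib.Helper54.HA.lemBridge
    Cfsg.Agent.Lib.Helper69.HA.lemDOne Cfsg.Agent.Lib.Helper69.HA.lemDAll
    Cfsg.Agent.Lib.Helper61.HA.lemDHall Cfsg.Agent.Lib.Helper11.HA.lemWPrime
    Cfsg.Agent.Lib.Helper15.HA.lemW78

end Cfsg.Agent.Lib.Helper73.HA
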